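import Mathlib
import Cfsg.Agent.Lib.Helper58.UPair.Defs

/-!
# UPair (S5984), package [MOVE]: a unitary matrix maps totally singular pairs to totally
singular pairs.
-/

set_option autoImplicit false
open scoped MatrixGroups Matrix

namespace Cfsg.Agent.Lib.Helper59.UPair

open Cfsg.Agent.Lib.Helper58.UPair

universe u

theorem pkgMove : PkgMove.{u} := by
  intro F _ _ q n m D g hD hg
  obtain ⟨hdec, hts⟩ := hD
  have h1 : (Matrix.toLin' (g : Matrix (Fin n) (Fin n) F)) ∘ₗ
      (Matrix.toLin' ((g⁻¹ : GL (Fin n) F) : Matrix (Fin n) (Fin n) F)) = LinearMap.id := by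
    rw [← Matrix.toLin'_mul, ← Units.val_mul, mul_inv_cancel, Units.val_one, Matrix.toLin'_one]
  have h2 : (Matrix.toLin' ((g⁻¹ : GL (Fin n) F) : Matrix (Fin n) (Fin n) F)) ∘ₗ
      (Matrix.toLin' (g : Matrix (Fin n) (Fin n) F)) = LinearMap.id := by
    rw [← Matrix.toLin'_mul, ← Units.val_mul, inv_mul_cancel, Units.val_one, Matrix.toLin'_one]
  obtain ⟨e, he⟩ : ∃ e : (Fin n → F) ≃ₗ[F] (Fin n → F),
      (e : (Fin n → F) →ₗ[F] (Fin n → F)) = Matrix.toLin' (g : Matrix (Fin n) (Fin n) F) :=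
    ⟨LinearEquiv.ofLinearMap _ _ h1 h2, rfl⟩
  have hmap : ∀ p : Submodule F (Fin n → F),
      p.map (Matrix.toLin' (g : Matrix (Fin n) (Fin n) F)) = Submodule.orderIsoMapComap e p := by
    intro p
    rw [← he]
    rfl
  refine ⟨⟨hdec.two_le, hdec.pos, ?_, ?_, ?_⟩, ?_⟩
  · intro i
    rw [← he]
    exact (LinearEquiv.finrank_map_eq e (D i)).trans (hdec.finrank_eq i)
  · have h3 := hdec.indep.map_orderIso (Submodule.orderIsoMapComap e)
    have h4 : (fun i => (D i).map (Matrix.toLin' (g : Matrix (Fin n) (Fin n) F))) =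
        (Submodule.orderIsoMapComap e) ∘ D := by
      funext i
      exact hmap (D i)
    rw [h4]
    exact h3
  · have h3 : (⨆ i, (D i).map (Matrix.toLin' (g : Matrix (Fin n) (Fin n) F))) =
        (⨆ i, D i).map (Matrix.toLin' (g : Matrix (Fin n) (Fin n) F)) :=
      (Submodule.map_iSup _ _).symm
    rw [h3, hdec.iSup_eq_top, Submodule.map_top, ← he]
    exact LinearEquiv.range e
  · intro i u hu v hv
    obtain ⟨u', hu', rfl⟩ := hu
    obtain ⟨v', hv', rfl⟩ := hv
    rw [Matrix.toLin'_apply, Matrix.toLin'_apply]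
    exact (hg u' v').trans (hts i u' hu' v' hv')

end Cfsg.Agent.Lib.Helper59.UPair
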