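import Mathlib
import Cfsg.Agent.Lib.Helper58.UPair.Defs

/-!
# UPair (S5984), package [TSDIM]: a totally singular subspace of the hermitian space `F^n`
has dimension at most `n / 2`.
-/

set_option autoImplicit false
open scoped MatrixGroups Matrix

namespace Cfsg.Agent.Lib.Helper59.UPair

open Cfsg.Agent.Lib.Helper58.UPair

universe u

theorem pkgTSDim : PkgTSDim.{u} := by
  intro F _ _ q n W hF hW
  classical
  -- the `q`-power map is injective
  have hconj : ∀ x : F, (x ^ q) ^ q = x := by
    intro x
    rw [← pow_mul, ← sq, ← hF, FiniteField.pow_card]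
  have hinj : ∀ x y : F, x ^ q = y ^ q → x = y := by
    intro x y h
    rw [← hconj x, ← hconj y, h]
  obtain ⟨B, hB⟩ : ∃ B : LinearMap.BilinForm F (Fin n → F),
      B = Matrix.toBilin' (1 : Matrix (Fin n) (Fin n) F) := ⟨_, rfl⟩
  have hBapp : ∀ u v : Fin n → F, B u v = u ⬝ᵥ v := by
    intro u v
    rw [hB, Matrix.toBilin'_apply', Matrix.one_mulVec]
  have hBnd : B.Nondegenerate := by
    rw [hB]
    exact LinearMap.BilinForm.nondegenerate_toBilin'_iff_det_ne_zero.2
      (by rw [Matrix.det_one]; exact one_ne_zero)
  have hfin : Module.finrank F (B.orthogonal W) = n - Module.finrank F W := by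
    rw [LinearMap.BilinForm.finrank_orthogonal hBnd W, Module.finrank_pi, Fintype.card_fin]
  -- the injection `W → W^⊥`
  have hmem : ∀ w : W, (fun i => ((w : Fin n → F) i) ^ q) ∈ B.orthogonal W := by
    intro w
    rw [LinearMap.BilinForm.mem_orthogonal_iff]
    intro u hu
    rw [hBapp]
    exact hW u hu w w.2
  have hcard : Nat.card W ≤ Nat.card (B.orthogonal W) := by
    apply Nat.card_le_card_of_injective (fun w : W => (⟨_, hmem w⟩ : B.orthogonal W))
    intro w w' h
    have h1 := congrArg Subtype.val h
    apply Subtype.ext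
    funext i
    exact hinj _ _ (congrFun h1 i)
  rw [Module.natCard_eq_pow_finrank (K := F) (V := W),
    Module.natCard_eq_pow_finrank (K := F) (V := B.orthogonal W), hfin] at hcard
  have h1 : 1 < Nat.card F := Finite.one_lt_card
  have h2 := (Nat.pow_le_pow_iff_right h1).1 hcard
  omega

end Cfsg.Agent.Lib.Helper59.UPair
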